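import Cfsg.Agent.ThCover66.G14.Data

/-! Generated: checks of the rows. -/

set_option autoImplicit false
set_option maxRecDepth 100000

namespace CfsgLib.ThCover66.G14

open CfsgLib.CosetEnum

theorem rows0 : allFrom (checkRow epF (fun x => x ^^^ 1) 29356 12 nodeF TF tfF 1404) 0 256 = true := by
  decide +kernel

theorem rows256 : allFrom (checkRow epF (fun x => x ^^^ 1) 29356 12 nodeF TF tfF 1404) 256 256 = true := by
  decide +kernel

theorem rows512 : allFrom (checkRow epF (fun x => x ^^^ 1) 29356 12 nodeF TF tfF 1404) 512 256 = true := by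
  decide +kernel

theorem rows768 : allFrom (checkRow epF (fun x => x ^^^ 1) 29356 12 nodeF TF tfF 1404) 768 256 = true := by
  decide +kernel

theorem rows1024 : allFrom (checkRow epF (fun x => x ^^^ 1) 29356 12 nodeF TF tfF 1404) 1024 256 = true := by
  decide +kernel

theorem rows1280 : allFrom (checkRow epF (fun x => x ^^^ 1) 29356 12 nodeF TF tfF 1404) 1280 124 = true := by
  decide +kernel

end CfsgLib.ThCover66.G14
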