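import Cfsg.Agent.ThCover66.G14.Facts0
import Cfsg.Agent.ThCover66.G14.Facts1
import Cfsg.Agent.ThCover66.G14.Facts2
import Cfsg.Agent.ThCover66.G14.Facts3
import Cfsg.Agent.ThCover66.G14.Rows0

/-! Generated: the checked certificate. -/

set_option autoImplicit false
set_option maxRecDepth 100000

namespace CfsgLib.ThCover66.G14

open CfsgLib.CosetEnum

theorem facts : FactsChecked cert.ep cert.iv cert.words cert.nr 29356 :=
  (factsUpTo29356 (factsUpTo24576 (factsUpTo16384 (factsUpTo8192 FactsChecked.zero))))

theorem rows : ∀ i < cert.n, checkRow cert.ep cert.iv 29356 cert.L cert.node cert.T cert.tf cert.n i = true :=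
  RangeChecked.all (RangeChecked.app 124 1404 (RangeChecked.app 256 1280 (RangeChecked.app 256 1024 (RangeChecked.app 256 768 (RangeChecked.app 256 512 (RangeChecked.app 256 256 RangeChecked.zero rows0 rfl) rows256 rfl) rows512 rfl) rows768 rfl) rows1024 rfl) rows1280 rfl)

theorem node_zero : cert.node 0 = 0 := by decide +kernel

theorem n_pos : 0 < cert.n := by decide +kernel

end CfsgLib.ThCover66.G14
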